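import Cfsg.Agent.Prae.Nsw
import Cfsg.Agent.Prae.Cnt

set_option autoImplicit false

namespace Cfsg.Agent.Prae
open Equiv

variable {Ω : Type} [Fintype Ω] [DecidableEq Ω]

/-- "every block `g⁻¹ F` through `x, y, z` passes through `d`" -/
def Q4 (G K : Subgroup (Perm Ω)) (x y z d : Ω) : Prop :=
  ∀ g ∈ G, Fx K (g x) → Fx K (g y) → Fx K (g z) → Fx K (g d)

/-- `Q4` is symmetric in its last two places: the sets `B(x,y,z) = {g ∈ GF G | g x, g y, g z ∈ F}` have the same size for all triples of distinct points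
(`Tr.three`, right translation `g ↦ g * t`); `B(x,y,z) ⊆ B(x,y,d)` so they are equal. (Symmetry in the first three places is trivial.) -/
theorem Q4.swap {G K : Subgroup (Perm Ω)} (ht : Tr G 3) {x y z d : Ω} (h1 : x ≠ y) (h2 : x ≠ z)
    (h3 : y ≠ z) (h4 : x ≠ d) (h5 : y ≠ d) (h : Q4 G K x y z d) : Q4 G K x y d z := by
  obtain ⟨t, hG, a, b, c⟩ := ht.three h1 h2 h3 h1 h4 h5
  have e : (GF G).filter (fun g => g x ∈ fF K ∧ g y ∈ fF K ∧ g z ∈ fF K) =
      (GF G).filter fun g => g x ∈ fF K ∧ g y ∈ fF K ∧ g d ∈ fF K :=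
    Finset.eq_of_subset_of_card_le (fun g hg => by
      simp only [Finset.mem_filter, mem_GF, mem_fF] at hg ⊢
      exact ⟨hg.1, hg.2.1, hg.2.2.1, h g hg.1 hg.2.1 hg.2.2.1 hg.2.2.2⟩)
      (Finset.card_le_card_of_injOn (· * t) (fun g hg => by
        simp only [Finset.coe_filter, Set.mem_ofPred_eq, mem_GF, Perm.mul_apply, a, b, c] at hg ⊢
        exact ⟨G.mul_mem hg.1 hG, hg.2⟩) fun _ _ _ _ e => mul_right_cancel e)
  intro g hg p q r
  have : g ∈ (GF G).filter fun g => g x ∈ fF K ∧ g y ∈ fF K ∧ g d ∈ fF K := by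
    simp only [Finset.mem_filter, mem_GF, mem_fF]
    exact ⟨hg, p, q, r⟩
  rw [← e] at this
  exact mem_fF.1 (Finset.mem_filter.1 this).2.2.2

/-- an abstract Steiner quadruple system -/
structure SQ (S : Ω → Ω → Ω → Ω → Prop) : Prop where
  s1 : ∀ {x y z d}, S x y z d → S y x z d
  s2 : ∀ {x y z d}, S x y z d → S x z y d
  s3 : ∀ {x y z d}, S x y z d → S x y d z
  ne : ∀ {x y z d}, S x y z d → x ≠ y
  ex : ∀ {x y z}, x ≠ y → x ≠ z → y ≠ z → ∃ d, S x y z d
  un : ∀ {x y z d d'}, S x y z d → S x y z d' → d = d'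

namespace SQ
variable {S : Ω → Ω → Ω → Ω → Prop}

omit [Fintype Ω] [DecidableEq Ω] in
theorem inj (h : SQ S) {x y : Ω} (hxy : x ≠ y) {A C : Finset Ω} (hx : x ∉ A) (hy : y ∉ A)
    (k : ∀ z ∈ A, ∀ d, S x y z d → d ∈ C) : A.card ≤ C.card :=
  Finset.card_le_card_of_forall_subsingleton (S x y)
    (fun z hz => (h.ex hxy (fun e => hx (e ▸ hz)) fun e => hy (e ▸ hz)).imp fun d hd => ⟨k z hz d hd, hd⟩)
    fun _ _ _ ha _ hb => h.un (h.s3 ha.2) (h.s3 hb.2)

theorem one (h : SQ S) {B : Finset Ω} (hn : 2 * B.card = Fintype.card Ω)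
    (cl : ∀ x y z d, S x y z d → x ∈ B → y ∈ B → z ∈ B → d ∈ B) {x s t d : Ω} (k : S x s t d)
    (hx : x ∈ B) (hs : s ∉ B) (ht : t ∉ B) : d ∈ B := by
  by_contra hd
  have h1 := h.inj (h.ne k) (A := B.erase x) (C := (Bᶜ.erase s).erase t) (Finset.notMem_erase _ _)
    (fun e => hs (Finset.mem_of_mem_erase e)) fun z hz e he => by
      have hz := Finset.mem_of_mem_erase hz
      refine Finset.mem_erase.2 ⟨?_, Finset.mem_erase.2 ⟨h.ne (h.s2 (h.s1 (h.s2 (h.s3 he)))),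
        Finset.mem_compl.2 fun m => hs (cl _ _ _ _ (h.s3 (h.s2 he)) hx hz m)⟩⟩
      rintro rfl
      exact hd (h.un (h.s3 he) k ▸ hz)
  have h2 := Finset.card_erase_add_one hx
  have h3 := Finset.card_erase_add_one (Finset.mem_compl.2 hs)
  have h4 := Finset.card_erase_add_one (Finset.mem_erase.2 ⟨(h.ne (h.s2 (h.s1 k))).symm, Finset.mem_compl.2 ht⟩)
  have h5 := Finset.card_add_card_compl B
  omega

theorem par (h : SQ S) {B : Finset Ω} (hn : 2 * B.card = Fintype.card Ω)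
    (cl : ∀ x y z d, S x y z d → x ∈ B → y ∈ B → z ∈ B → d ∈ B) {x y z d : Ω} (k : S x y z d) :
    d ∈ B ↔ (x ∈ B ↔ (y ∈ B ↔ z ∈ B)) := by
  have a1 := cl _ _ _ _ k
  have a2 := cl _ _ _ _ (h.s3 k)
  have a3 := cl _ _ _ _ (h.s3 (h.s2 k))
  have a4 := cl _ _ _ _ (h.s3 (h.s2 (h.s1 k)))
  have b1 := h.one hn cl k
  have b2 := h.one hn cl (h.s1 k)
  have b3 := h.one hn cl (h.s1 (h.s2 k))
  have b4 := h.one hn cl (h.s1 (h.s2 (h.s3 k)))
  by_cases x ∈ B <;> by_cases y ∈ B <;> by_cases z ∈ B <;> by_cases d ∈ B <;> simp_all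

theorem two (h : SQ S) {F B : Finset Ω} (hF : 2 * F.card = Fintype.card Ω) (hB : 2 * B.card = Fintype.card Ω)
    (cF : ∀ x y z d, S x y z d → x ∈ F → y ∈ F → z ∈ F → d ∈ F)
    (cB : ∀ x y z d, S x y z d → x ∈ B → y ∈ B → z ∈ B → d ∈ B) {y : Ω} (hy : y ∈ F ↔ y ∈ B) :
    F.card ≤ 2 * (F ∩ B).card := by
  have h1 := Finset.card_sdiff_add_card_inter F B
  have h2 := Finset.card_sdiff_add_card_inter B F
  have h3 := Finset.card_union_of_disjoint (disjoint_sdiff_sdiff (x := F) (y := B))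
  have m : ∀ z, z ∈ F \ B ∪ B \ F ↔ ¬ (z ∈ F ↔ z ∈ B) := fun z => by
    simp only [Finset.mem_union, Finset.mem_sdiff]; tauto
  rw [Finset.inter_comm] at h2
  rcases (F \ B ∪ B \ F).eq_empty_or_nonempty with e | ⟨x, hx⟩
  · rw [e, Finset.card_empty] at h3
    omega
  have hy' : y ∉ F \ B ∪ B \ F := fun e => (m y).1 e hy
  have h4 := h.inj (x := x) (y := y) (fun e => hy' (e ▸ hx)) (A := (F \ B ∪ B \ F).erase x)
    (C := (F \ B ∪ B \ F)ᶜ.erase y) (Finset.notMem_erase _ _) (fun e => hy' (Finset.mem_of_mem_erase e))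
    fun z hz e he => Finset.mem_erase.2 ⟨h.ne (h.s2 (h.s1 (h.s2 (h.s3 he)))), Finset.mem_compl.2 fun k => by
      have a := (m z).1 (Finset.mem_of_mem_erase hz)
      have b := (m x).1 hx
      have c := (m e).1 k
      rw [h.par hF cF he, h.par hB cB he] at c
      tauto⟩
  have h5 := Finset.card_erase_add_one hx
  have h6 := Finset.card_erase_add_one (Finset.mem_compl.2 hy')
  have h7 := Finset.card_add_card_compl (F \ B ∪ B \ F)
  omega

end SQ

/-- The Steiner quadruple system case is impossible. Write `q x y z` for the unique `d` (transport `hex`/`huniq` to every triple by `Tr.three`; `Q4` is `G`-invariant).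
For `x ≠ y`, `z ↦ q x y z` is an involution without fixed points of `Ω \ {x,y}` (`Q4.swap` + uniqueness). Let `B = g⁻¹F` be a block (`h` points; complement `h` points).
(1) three points of a quadruple `{x,y,z,q x y z}` in `B` force the fourth (symmetry of `Q4`).
(2) `x ∈ B`, `s ∉ B`: `q x s ·` injects `B \ {x}` into `Bᶜ \ {s}` (by (1)), both of size `h-1`, so it is onto and `q x s t ∈ B` for `t ∈ Bᶜ \ {s}`.
So every quadruple meets `B` in an even number of points: `[q x y z ∈ B] = [x ∈ B] xor [y ∈ B] xor [z ∈ B]`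
(case all of `x,y,z ∉ B`: if `d ∈ B` apply (2) to `d, x` and `t = y`: `q d x y = z ∈ B`, false).
(3) For `g ∈ G` let `D = F ∆ g⁻¹F`; it satisfies the same xor rule. If `D = ∅`, `|F ∩ g⁻¹F| = h`. `D = univ` is excluded by `nsw`. Otherwise take `x ∈ D`, `y ∉ D`:
`q x y ·` swaps `D \ {x}` and `Dᶜ \ {y}`, so `|D| = h` and `2|F ∩ g⁻¹F| = h`. So always `h ≤ 2|F ∩ g⁻¹F|`, strictly for `g = 1` (`h > 0`).
(4) `Σ_{g ∈ G} |F ∩ g⁻¹F| · n = |G| h²` (`cntAB` with `j = 0`, or `cnt` with `k = 1`; `Tr G 1`), i.e. the mean of `2|F ∩ g⁻¹F|` is `h`. Contradiction. -/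
theorem H3.sqs {G K : Subgroup (Perm Ω)} {α β γ : Ω} (h : H3 G K α β γ)
    (hex : ∃ d, d ≠ α ∧ d ≠ β ∧ d ≠ γ ∧ Q4 G K α β γ d)
    (huniq : ∀ d d', d ≠ α → d ≠ β → d ≠ γ → d' ≠ α → d' ≠ β → d' ≠ γ →
      Q4 G K α β γ d → Q4 G K α β γ d' → d = d') : False := by
  have iv : ∀ {x y z d : Ω} {t : Perm Ω}, t ∈ G → Q4 G K x y z d → Q4 G K (t x) (t y) (t z) (t d) :=
    fun ht k g hg => k (g * _) (G.mul_mem hg ht)
  have sq : SQ fun x y z d => (x ≠ y ∧ x ≠ z ∧ y ≠ z ∧ d ≠ x ∧ d ≠ y ∧ d ≠ z) ∧ Q4 G K x y z d :=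
    { s1 := fun ⟨⟨a, b, c, d, e, f⟩, k⟩ => ⟨⟨a.symm, c, b, e, d, f⟩, fun g hg p q => k g hg q p⟩
      s2 := fun ⟨⟨a, b, c, d, e, f⟩, k⟩ => ⟨⟨b, a, c.symm, d, f, e⟩, fun g hg p q r => k g hg p r q⟩
      s3 := fun ⟨⟨a, b, c, d, e, f⟩, k⟩ => ⟨⟨a, d.symm, e.symm, b.symm, c.symm, f.symm⟩,
        k.swap h.t3 a b c d.symm e.symm⟩
      ne := fun k => k.1.1
      ex := fun a b c => by
        obtain ⟨t, ht, rfl, rfl, rfl⟩ := h.t3.three h.ab h.ac h.bc a b c
        obtain ⟨d, d1, d2, d3, k⟩ := hex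
        exact ⟨t d, ⟨a, b, c, t.injective.ne d1, t.injective.ne d2, t.injective.ne d3⟩, iv ht k⟩
      un := fun ⟨⟨a, b, c, d, e, f⟩, k⟩ ⟨⟨_, _, _, d', e', f'⟩, k'⟩ => by
        obtain ⟨t, ht, rfl, rfl, rfl⟩ := h.t3.three a b c h.ab h.ac h.bc
        exact t.injective (huniq _ _ (t.injective.ne d) (t.injective.ne e) (t.injective.ne f)
          (t.injective.ne d') (t.injective.ne e') (t.injective.ne f') (iv ht k) (iv ht k')) }
  have pos : 0 < (fF K).card := Finset.card_pos.2 ⟨α, mem_fF.2 h.fa⟩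
  have lt := Finset.sum_lt_sum (s := GF G) (f := fun _ => (fF K).card)
    (g := fun g => 2 * ((fF K).filter fun x => g x ∈ fF K).card) (fun g hg => by
      have hg := mem_GF.1 hg
      obtain ⟨y, hy⟩ : ∃ y, y ∈ fF K ↔ y ∈ Finset.univ.filter fun x => g x ∈ fF K := by
        by_contra n
        refine nsw h.ce.pn ⟨α⟩ (G.inv_mem hg) fun x => ?_
        have := not_exists.1 n x
        simp only [Finset.mem_filter, Finset.mem_univ, true_and, mem_fF] at this
        rw [inv_inv]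
        tauto
      have := sq.two h.hn ((congrArg _ (Finset.card_equiv g fun x => by simp)).trans h.hn)
        (fun x y z d k a b c => mem_fF.2 (k.2 1 G.one_mem (mem_fF.1 a) (mem_fF.1 b) (mem_fF.1 c)))
        (fun x y z d k => by simpa using k.2 g hg) hy
      rwa [Finset.inter_filter, Finset.inter_univ] at this)
    ⟨1, mem_GF.2 G.one_mem, by
      rw [Finset.filter_true_of_mem (s := fF K) (p := fun x => (1 : Perm Ω) x ∈ fF K) fun _ k => k]
      omega⟩
  have t1 : Tr G (0 + 1) := fun x y _ _ => (h.ce.tr (x 0) (y 0)).imp fun g k =>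
    ⟨k.1, fun i => by fin_cases i; exact k.2⟩
  have e : ∀ z ∈ fF K, 2 * ((GF G).filter fun g => g z ∈ fF K).card = (GF G).card := fun z _ => by
    have := cntAB t1 (x := Fin.elim0) (z := z) (fun i => i.elim0) (fun i => i.elim0) (A := ∅) (B := fF K)
      (Finset.disjoint_empty_left _)
    simp only [IsEmpty.forall_iff, true_and, zero_add, Nat.descFactorial_one, Nat.descFactorial_zero,
      one_mul, ← h.hn] at this
    exact Nat.eq_of_mul_eq_mul_right pos (by rw [← this]; ring)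
  have e2 : ∑ g ∈ GF G, ((fF K).filter fun x => g x ∈ fF K).card =
      ∑ z ∈ fF K, ((GF G).filter fun g => g z ∈ fF K).card :=
    Finset.sum_card_bipartiteAbove_eq_sum_card_bipartiteBelow fun (g : Perm Ω) x => g x ∈ fF K
  rw [← Finset.mul_sum, e2, Finset.mul_sum, Finset.sum_congr rfl e, Finset.sum_const, Finset.sum_const,
    smul_eq_mul, smul_eq_mul, mul_comm] at lt
  exact lt_irrefl _ lt

end Cfsg.Agent.Prae
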