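import Cfsg.Agent.Prae.C12b
import Cfsg.Agent.Prae.C111
import Cfsg.Agent.Prae.Sqs
import Cfsg.Agent.Prae.Lev1

set_option autoImplicit false

namespace Cfsg.Agent.Prae
open Equiv

variable {Ω : Type} [Fintype Ω] [DecidableEq Ω]

theorem H12.par {G K : Subgroup (Perm Ω)} {α β γ x y p q r s t : Ω} (h : H12 G K α β γ x y)
    (h1 : p ≠ q) (h2 : p ≠ r) (h3 : q ≠ r) (h4 : r ≠ s) (h5 : r ≠ t) (e : E4 G α β γ x p q s t) :
    E4 G α β γ x p q r s ∨ E4 G α β γ x p q r t := by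
  by_contra hh
  push Not at hh
  obtain ⟨g, hg, e1, e2, e3⟩ := h.t3.three h1 h2 h3 h.ab h.ac h.bc
  have f := (E4.smul hg).2 e
  have n1 := (E4.smul (α := α) (β := β) (γ := γ) (x := x) hg).not.2 hh.1
  have n2 := (E4.smul (α := α) (β := β) (γ := γ) (x := x) hg).not.2 hh.2
  rw [e1, e2] at f
  rw [e1, e2, e3] at n1 n2
  exact h.edge (Ne.symm h.ac) (Ne.symm h.bc) (fun e => h4 (g.injective (e3.trans e)))
    (fun e => h5 (g.injective (e3.trans e))) f n1 n2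

theorem H12.false {G K : Subgroup (Perm Ω)} {α β γ x y : Ω} (h : H12 G K α β γ x y) : False := by
  have s1 : ∀ {p q r s}, E4 G α β γ x p q r s → E4 G α β γ x q p r s := fun e => (h.sw e).1
  have s2 : ∀ {p q r s}, E4 G α β γ x p q r s → E4 G α β γ x p r q s := fun e => (h.sw e).2.1
  have s3 : ∀ {p q r s}, E4 G α β γ x p q r s → E4 G α β γ x p q s r := fun e => (h.sw e).2.2
  have e0 : E4 G α β γ x α β γ x := ⟨1, G.one_mem, rfl, rfl, rfl, rfl⟩
  have hxy : y ≠ x := fun e => by have := h.dy; rw [e, h.dx] at this; omega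
  have ny : ¬ E4 G α β γ x α β γ y := fun e => by
    have := h.dy
    rw [orb_eq (E4.iff_orb.1 e), h.dx] at this
    omega
  -- `(α,β,y,x)`
  have e1 : E4 G α β γ x α β y x := by
    rcases h.par h.ab (Ne.symm h.ya) (Ne.symm h.yb) h.yc hxy e0 with e | e
    · exact absurd (s3 e) ny
    · exact e
  -- pair `(α,γ)`: edge `β x`; vertex `y` not adjacent to `β`
  have e2 : E4 G α β γ x α γ y x := by
    rcases h.par h.ac (Ne.symm h.ya) (Ne.symm h.yc) h.yb hxy (s2 e0) with e | e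
    · exact absurd (s2 (s3 e)) ny
    · exact e
  -- pair `(α,x)`: triangle `β γ y`
  exact h.tri (p := α) (q := x) (r := β) (s := γ) (t := y) (s2 (s3 e0)) (s2 (s3 e1)) (s2 (s3 e2))

theorem tr_succ {G : Subgroup (Perm Ω)} {k : ℕ} (ht : Tr G k) (b : Fin k → Ω) (hb : Function.Injective b)
    (h : ∀ z z', (∀ i, b i ≠ z) → (∀ i, b i ≠ z') → ∃ g ∈ G, (∀ i, g (b i) = b i) ∧ g z = z') :
    Tr G (k + 1) := by
  intro x y hx hy
  obtain ⟨g, hg, e⟩ := ht (fun i => x i.castSucc) b (hx.comp (Fin.castSucc_injective k)) hb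
  obtain ⟨g', hg', e'⟩ := ht (fun i => y i.castSucc) b (hy.comp (Fin.castSucc_injective k)) hb
  obtain ⟨t, ht, f1, f2⟩ := h (g (x (Fin.last k))) (g' (y (Fin.last k)))
    (fun i hh => (Fin.castSucc_lt_last i).ne (hx (g.injective ((e i).trans hh))))
    (fun i hh => (Fin.castSucc_lt_last i).ne (hy (g'.injective ((e' i).trans hh))))
  refine ⟨g'⁻¹ * t * g, G.mul_mem (G.mul_mem (G.inv_mem hg') ht) hg, fun i => ?_⟩
  simp only [Perm.mul_apply]
  rw [Perm.inv_eq_iff_eq]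
  induction i using Fin.lastCases with
  | last => exact f2
  | cast i => rw [e i, f1, e' i]

theorem Ce.t3 {G K : Subgroup (Perm Ω)} (h : Ce G K) : Tr G 3 := by
  obtain ⟨hn, h2⟩ := h.lev1
  have hm := two_le_mv h.nt
  obtain ⟨β, hβ, γ, hγ, hne⟩ := Finset.one_lt_card.1 (show 1 < (fF K).card by omega)
  rw [mem_fF] at hβ hγ
  have hO : ∀ z, z ∈ orb (st G β) γ ↔ z ≠ β := by
    intro z
    constructor
    · intro hz
      obtain ⟨g, hg, rfl⟩ := Prae.mem_orb.1 hz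
      exact fun e => hne (g.injective ((mem_st.1 hg).2.trans e.symm))
    · intro hz
      obtain ⟨g, hg, e1, e2⟩ := h2.two hne (Ne.symm hz)
      exact Prae.mem_orb.2 ⟨g, mem_st.2 ⟨hg, e1⟩, e2⟩
  have hd : dl K (orb (st G β) γ) = 1 := by
    have h0 := card_eq_dl K (Finset.univ : Finset Ω)
    rw [Finset.univ_inter, Finset.card_univ, ← hn] at h0
    have h1 : orb (st G β) γ = Finset.univ \ {β} := by ext z; rw [hO]; simp
    have h3 := dl_sdiff K (Finset.subset_univ ({β} : Finset Ω))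
    have h4 : dl K ({β} : Finset Ω) = -(({β} : Finset Ω).card : ℤ) :=
      dl_fixed (fun x hx => by rw [Finset.mem_singleton.1 hx]; exact hβ)
    rw [Finset.card_singleton] at h4
    rw [h1]
    push_cast at h0 h4
    omega
  have hp := h.p1 (le_st h.le hβ) (st_le G β) (z := β) (fun hh => (hO β).1 hh rfl) hd
  refine tr_succ h2 ![β, γ] (by intro i j; fin_cases i <;> fin_cases j <;> simp_all [eq_comm]) ?_
  intro z z' hz hz'
  obtain ⟨g, hg, e1, e2⟩ := hp γ (self_mem_orb _ _) z ((hO z).2 (Ne.symm (hz 0))) γ (self_mem_orb _ _) z'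
    ((hO z').2 (Ne.symm (hz' 0))) (hz 1) (hz' 1)
  refine ⟨g, (mem_st.1 hg).1, fun i => ?_, e2⟩
  fin_cases i
  · exact (mem_st.1 hg).2
  · exact e1

theorem H3.q4 {G K : Subgroup (Perm Ω)} {α β γ : Ω} (h : H3 G K α β γ) (d : Ω) :
    Q4 G K α β γ d ↔ Rl K (st (st G α) β) γ d := by
  constructor
  · intro hq g hg hγ
    simp only [mem_st] at hg
    exact hq g hg.1.1 (by rw [hg.1.2]; exact h.fa) (by rw [hg.2]; exact h.fb) hγ
  · intro hr g hg h1 h2 h3
    obtain ⟨n, hn, hF, he⟩ := witt h.ce.pn h.ce.le hg {α, β, γ}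
      (by rintro z (rfl | rfl | rfl); exacts [h.fa, h.fb, h.fc])
      (by rintro z (rfl | rfl | rfl); exacts [h1, h2, h3])
    have hw : n⁻¹ * g ∈ st (st G α) β := by
      simp only [mem_st, Perm.mul_apply, Perm.inv_eq_iff_eq]
      exact ⟨⟨G.mul_mem (G.inv_mem hn) hg, (he α (by simp)).symm⟩, (he β (by simp)).symm⟩
    have hγ : (n⁻¹ * g) γ = γ := by
      simp only [Perm.mul_apply, Perm.inv_eq_iff_eq]; exact (he γ (by simp)).symm
    have := hr _ hw (by rw [hγ]; exact h.fc)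
    rw [← hF] at this
    simpa using this

theorem H3.cl_one {G K : Subgroup (Perm Ω)} {α β γ : Ω} (h : H3 G K α β γ) :
    cl K (st (st G α) β) γ = {γ} := by
  obtain ⟨d1, d2⟩ := cl_dvd K (st (st G α) β) γ
  have h0 := card_eq_dl K (orb (st (st G α) β) γ)
  rw [h.dl_O] at h0
  have h1 : (orb (st (st G α) β) γ).card = 2 * (orb (st (st G α) β) γ ∩ fF K).card + 2 := by omega
  rw [h1] at d1
  have d3 : (cl K (st (st G α) β) γ).card ∣ 2 := (Nat.dvd_add_right (Dvd.dvd.mul_left d2 2)).1 d1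
  have hs := self_mem_cl K (st (st G α) β) γ
  rcases (Nat.dvd_prime Nat.prime_two).1 d3 with e | e
  · obtain ⟨z, hz⟩ := Finset.card_eq_one.1 e
    rw [hz] at hs ⊢
    rw [Finset.mem_singleton.1 hs]
  · exfalso
    have key : ∀ d, d ≠ α → d ≠ β → Q4 G K α β γ d → d ∈ cl K (st (st G α) β) γ :=
      fun d h1 h2 hq => mem_cl.2 ⟨(h.mem_O d).2 ⟨h1, h2⟩, (h.q4 d).1 hq⟩
    have e' : ((cl K (st (st G α) β) γ).erase γ).card = 1 := by rw [Finset.card_erase_of_mem hs, e]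
    obtain ⟨z, hz⟩ := Finset.card_eq_one.1 e'
    have hz' : z ∈ (cl K (st (st G α) β) γ).erase γ := by rw [hz]; simp
    obtain ⟨z1, z2⟩ := Finset.mem_erase.1 hz'
    obtain ⟨z3, z4⟩ := mem_cl.1 z2
    refine h.sqs ⟨z, ((h.mem_O z).1 z3).1, ((h.mem_O z).1 z3).2, z1, (h.q4 z).2 z4⟩ ?_
    intro d d' a1 a2 a3 b1 b2 b3 q1 q2
    have m1 : d ∈ (cl K (st (st G α) β) γ).erase γ := Finset.mem_erase.2 ⟨a3, key d a1 a2 q1⟩
    have m2 : d' ∈ (cl K (st (st G α) β) γ).erase γ := Finset.mem_erase.2 ⟨b3, key d' b1 b2 q2⟩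
    rw [hz, Finset.mem_singleton] at m1 m2
    rw [m1, m2]

theorem H3.t4 {G K : Subgroup (Perm Ω)} {α β γ : Ω} (h : H3 G K α β γ) : Tr G 4 := by
  have hRG : st (st G α) β ≤ G := (st_le _ _).trans (st_le _ _)
  have hLG : st (st (st G α) β) γ ≤ G := (st_le _ _).trans hRG
  obtain ⟨s1, s2, s3⟩ := cl_split (h.ce.pn.mono hRG) h.le2 h.fc
  rw [h.cl_one] at s1 s2 s3
  rw [h.dl_O, Finset.card_singleton] at s3
  set L := st (st (st G α) β) γ with hL
  set Γ := orb (st (st G α) β) γ \ {γ} with hΓ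
  have mΓ : ∀ z, z ∈ Γ ↔ z ≠ α ∧ z ≠ β ∧ z ≠ γ := by
    intro z; rw [hΓ, Finset.mem_sdiff, h.mem_O, Finset.mem_singleton, and_assoc]
  have hγΓ : γ ∉ Γ := fun hh => ((mΓ γ).1 hh).2.2 rfl
  -- peeling
  have peel : ∀ Δ : Finset Ω, Δ ⊆ Γ → (∀ g ∈ L, ∀ z ∈ Δ, g z ∈ Δ) → ∀ x ∈ Δ,
      orb L x ⊆ Δ ∧ 1 ≤ dl K (orb L x) ∧ (∀ g ∈ L, ∀ z ∈ Δ \ orb L x, g z ∈ Δ \ orb L x) ∧
      dl K Δ = dl K (orb L x) + dl K (Δ \ orb L x) ∧ 0 ≤ dl K (Δ \ orb L x) ∧
      ((Δ \ orb L x).Nonempty → 1 ≤ dl K (Δ \ orb L x)) := by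
    intro Δ hΔ hinv x hx
    have a1 : orb L x ⊆ Δ := fun z hz => by
      obtain ⟨g, hg, rfl⟩ := Prae.mem_orb.1 hz
      exact hinv g hg x hx
    have a2 : ∀ g ∈ L, ∀ z ∈ Δ \ orb L x, g z ∈ Δ \ orb L x := fun g hg z hz => by
      obtain ⟨b1, b2⟩ := Finset.mem_sdiff.1 hz
      refine Finset.mem_sdiff.2 ⟨hinv g hg z b1, fun hh => b2 ?_⟩
      simpa using orb_inv (L.inv_mem hg) hh
    have a3 := h.ce.inv_dl h.le3 hLG (z := γ) (Δ \ orb L x)
      (fun hh => hγΓ (hΔ (Finset.mem_sdiff.1 hh).1)) a2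
      (fun z hz => s2 z (hΔ (Finset.mem_sdiff.1 hz).1))
    exact ⟨a1, h.ce.orb_dl h.le3 hLG (z := γ) (fun hh => hγΓ (hΔ (a1 hh))) (s2 x (hΔ hx)), a2,
      dl_sdiff K a1, a3.1, a3.2⟩
  have hne : Γ.Nonempty := by
    rw [Finset.nonempty_iff_ne_empty]
    intro e
    rw [e, dl_empty] at s3
    omega
  obtain ⟨x, hx⟩ := hne
  obtain ⟨p1, p2, p3, p4, p5, p6⟩ := peel Γ subset_rfl s1 x hx
  by_cases e1 : (Γ \ orb L x).Nonempty
  · exfalso
    have p7 := p6 e1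
    obtain ⟨y, hy⟩ := e1
    obtain ⟨q1, q2, q3, q4, q5, q6⟩ := peel _ Finset.sdiff_subset p3 y hy
    obtain ⟨x1, x2, x3⟩ := (mΓ x).1 hx
    obtain ⟨y1, y2, y3⟩ := (mΓ y).1 (Finset.mem_sdiff.1 hy).1
    by_cases e2 : ((Γ \ orb L x) \ orb L y).Nonempty
    · have q7 := q6 e2
      obtain ⟨z, hz⟩ := e2
      obtain ⟨r1, r2, r3, r4, r5, r6⟩ := peel _ (Finset.sdiff_subset.trans Finset.sdiff_subset) q3 z hz
      obtain ⟨z1, z2, z3⟩ := (mΓ z).1 (Finset.mem_sdiff.1 (Finset.mem_sdiff.1 hz).1).1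
      have e3 : ¬ (((Γ \ orb L x) \ orb L y) \ orb L z).Nonempty := fun hh => by
        have := r6 hh; omega
      have nxy := (Finset.mem_sdiff.1 hy).2
      have nxz := (Finset.mem_sdiff.1 (Finset.mem_sdiff.1 hz).1).2
      have nyz := (Finset.mem_sdiff.1 hz).2
      have nyx := fun hh => nxy (orb_symm hh)
      have nzx := fun hh => nxz (orb_symm hh)
      have nzy := fun hh => nyz (orb_symm hh)
      refine h.c111 ![x, y, z] (fun i => by fin_cases i <;> assumption)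
        (fun i => by fin_cases i <;> assumption) (fun i => by fin_cases i <;> assumption) ?_ ?_ ?_
      · intro w w1 w2 w3
        by_contra hh
        push Not at hh
        exact e3 ⟨w, by
          simp only [Finset.mem_sdiff]
          exact ⟨⟨⟨(mΓ w).2 ⟨w1, w2, w3⟩, hh 0⟩, hh 1⟩, hh 2⟩⟩
      · intro i j hij
        fin_cases i <;> fin_cases j <;> first | rfl | contradiction
      · intro i
        fin_cases i
        · show dl K (orb L x) = 1
          omega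
        · show dl K (orb L y) = 1
          omega
        · show dl K (orb L z) = 1
          omega
    · have q8 : dl K ((Γ \ orb L x) \ orb L y) = 0 := by
        rw [Finset.not_nonempty_iff_eq_empty.1 e2, dl_empty]
      have cov : ∀ w, w ≠ α → w ≠ β → w ≠ γ → w ∈ orb L x ∨ w ∈ orb L y := by
        intro w w1 w2 w3
        by_contra hh
        push Not at hh
        exact e2 ⟨w, by
          simp only [Finset.mem_sdiff]
          exact ⟨⟨(mΓ w).2 ⟨w1, w2, w3⟩, hh.1⟩, hh.2⟩⟩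
      by_cases e4 : dl K (orb L x) = 1
      · exact H12.false (x := x) (y := y) ⟨h, x1, x2, x3, y1, y2, y3, cov, e4, by show dl K (orb L y) = 2; omega⟩
      · exact H12.false (x := y) (y := x) ⟨h, y1, y2, y3, x1, x2, x3,
          fun w w1 w2 w3 => (cov w w1 w2 w3).symm, by show dl K (orb L y) = 1; omega,
          by show dl K (orb L x) = 2; omega⟩
  · have cov : ∀ w ∈ Γ, w ∈ orb L x := fun w hw => by
      by_contra hh
      exact e1 ⟨w, Finset.mem_sdiff.2 ⟨hw, hh⟩⟩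
    refine tr_succ h.t3 ![α, β, γ] (inj3 h.ab h.ac h.bc) ?_
    intro z z' hz hz'
    have c1 := cov z ((mΓ z).2 ⟨Ne.symm (hz 0), Ne.symm (hz 1), Ne.symm (hz 2)⟩)
    have c2 := cov z' ((mΓ z').2 ⟨Ne.symm (hz' 0), Ne.symm (hz' 1), Ne.symm (hz' 2)⟩)
    rw [← orb_eq c1] at c2
    obtain ⟨g, hg, e⟩ := Prae.mem_orb.1 c2
    refine ⟨g, hLG hg, fun i => ?_, e⟩
    simp only [hL, mem_st] at hg
    fin_cases i
    · exact hg.1.1.2
    · exact hg.1.2
    · exact hg.2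

theorem Ce.t4 {G K : Subgroup (Perm Ω)} (h : Ce G K) : Tr G 4 := by
  obtain ⟨hn, -⟩ := h.lev1
  have hm := two_le_mv h.nt
  have h3 : 3 < (fF K).card := h.hbig hn (by omega) h.t3
  obtain ⟨α, hα, β, hβ, γ, hγ, ab, ac, bc⟩ := Finset.two_lt_card.1 (show 2 < (fF K).card by omega)
  exact H3.t4 ⟨h, hn, h.t3, mem_fF.1 hα, mem_fF.1 hβ, mem_fF.1 hγ, ab, ac, bc⟩

end Cfsg.Agent.Prae
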