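import Cfsg.Agent.Prae.Api
import Cfsg.Agent.S0713

set_option autoImplicit false

namespace Cfsg.Agent.Prae
open Equiv

variable {Ω : Type} [Fintype Ω] [DecidableEq Ω]

omit [Fintype Ω] [DecidableEq Ω] in
theorem nsw_fix {P : Ω → Prop} {w : Perm Ω} (h : ∀ x, P x → w x = x) (x : Ω) : P (w x) ↔ P x :=
  ⟨fun e => w.injective (h _ e) ▸ e, fun e => (h x e).symm ▸ e⟩

/-- no `g ∈ G` maps `F` onto its complement: `H` = setwise stabiliser of `F` (`∀ x, Fx (w x) ↔ Fx x`) contains `K` and `g K g⁻¹`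
(which fixes the complement pointwise); `pn_stab` gives `Fx x ↔ Fx (g⁻¹ x) ↔ ¬ Fx x`. -/
theorem nsw {G K : Subgroup (Perm Ω)} (hp : Pn K G) (hne : Nonempty Ω) {g : Perm Ω} (hg : g ∈ G)
    (h : ∀ x, Fx K (g⁻¹ x) ↔ ¬ Fx K x) : False := by
  let H : Subgroup (Perm Ω) :=
    { carrier := {w | ∀ x, Fx K (w x) ↔ Fx K x}
      one_mem' := fun _ => Iff.rfl
      mul_mem' := fun a b x => (a _).trans (b x)
      inv_mem' := fun {w} a x => (a _).symm.trans (by simp) }
  obtain ⟨w, hw, e⟩ := pn_stab (H := H) hp hg (fun k hk => nsw_fix fun x hx => hx k hk) fun k hk x =>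
    not_iff_not.1 (nsw_fix (P := fun x => ¬ Fx K x) (fun x hx => by
      rw [Perm.mul_apply, Perm.mul_apply, (h x).2 hx k hk]
      simp) x)
  obtain ⟨x⟩ := hne
  exact iff_not_self (((H.inv_mem hw x).symm.trans (e x)).trans (h x))

/-- `K ≠ ⊥` moves at least two points -/
theorem two_le_mv {K : Subgroup (Perm Ω)} (hK : K ≠ ⊥) : (fF K).card + 2 ≤ Fintype.card Ω := by
  obtain ⟨k, hk, k1⟩ := (Subgroup.bot_or_exists_ne_one K).resolve_left hK
  have := (Perm.two_le_card_support_of_ne_one k1).trans (Finset.card_le_card (t := (fF K)ᶜ) fun x hx =>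
    Finset.mem_compl.2 fun e => Perm.mem_support.1 hx (mem_fF.1 e k hk))
  have := Finset.card_add_card_compl (fF K)
  omega

/-- if `h = |F| ≤ k` then `Tr G h` (`Tr.down`) maps an enumeration of `F` onto one of the complement; `nsw`. -/
theorem Ce.hbig {G K : Subgroup (Perm Ω)} (h : Ce G K) (hn : 2 * (fF K).card = Fintype.card Ω) {k : ℕ}
    (hk : k ≤ Fintype.card Ω) (ht : Tr G k) : k < (fF K).card := by
  by_contra hc
  have h2 := two_le_mv h.nt
  have h3 := Finset.card_add_card_compl (fF K)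
  let e := (fF K).equivFin
  let e' := Finset.equivFinOfCardEq (show (fF K)ᶜ.card = (fF K).card by omega)
  obtain ⟨g, hg, a⟩ := ht.down (not_lt.1 hc) hk (fun i => e.symm i) (fun i => e'.symm i)
    (Subtype.val_injective.comp e.symm.injective) (Subtype.val_injective.comp e'.symm.injective)
  refine nsw h.pn (Fintype.card_pos_iff.1 (by omega)) hg fun z => ⟨fun b => ?_, fun b => ?_⟩
  · have := a (e ⟨_, mem_fF.2 b⟩)
    rw [e.symm_apply_apply, show g (g⁻¹ z) = z by simp] at this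
    exact mt mem_fF.2 (Finset.mem_compl.1 (this ▸ (e'.symm _).2))
  · have := a (e' ⟨_, Finset.mem_compl.2 (mt mem_fF.1 b)⟩)
    rw [e'.symm_apply_apply, ← Perm.eq_inv_iff_eq] at this
    exact mem_fF.1 (this ▸ (e.symm _).2)

/-- `alternatingGroup.isMultiplyPretransitive` gives `Tr G (n-2)`, and `h ≤ n - 2` (`two_le_mv`). -/
theorem Ce.alt {G K : Subgroup (Perm Ω)} (h : Ce G K) (hn : 2 * (fF K).card = Fintype.card Ω) :
    ¬ alternatingGroup Ω ≤ G := by
  intro ha
  have h1 := (tr_iff _ _).2 (alternatingGroup.isMultiplyPretransitive Ω)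
  rw [Nat.card_eq_fintype_card] at h1
  have := h.hbig hn (Nat.sub_le _ 2) fun x y hx hy => (h1 x y hx hy).imp fun g a => ⟨ha a.1, a.2⟩
  have := two_le_mv h.nt
  omega

/-- Jordan (`Cfsg.Agent.S0713.result`); primitivity from 2-transitivity (`tr_iff`,
`MulAction.isPreprimitive_of_is_two_pretransitive`). -/
theorem jor {G : Subgroup (Perm Ω)} (ht : Tr G 2) {p : ℕ} (hp : p.Prime) (h5 : 5 ≤ Fintype.card Ω)
    (hpn : p + 3 ≤ Fintype.card Ω) {u : Perm Ω} (hu : u ∈ G) (ho : orderOf u = p)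
    (hm : u.support.card < 2 * p) : alternatingGroup Ω ≤ G := by
  subst ho
  have hc := Perm.isCycle_of_prime_order hp hm
  exact Cfsg.Agent.S0713.result G (MulAction.isPreprimitive_of_is_two_pretransitive ((tr_iff _ _).1 ht))
    hp h5 hpn hc hc.orderOf.symm hu

/-- `n - 3 = q` prime, `2q > n`, `G` 4-transitive: `q ∣ |G|` (orbit–stabiliser for the transitive action on `Fin 4 ↪ Ω`,
`Fintype.card_embedding_eq`, `n.descFactorial 4`), Cauchy gives `u` of order `q`; `jor`. -/
theorem jor2 {G : Subgroup (Perm Ω)} (ht : Tr G 4) {q : ℕ} (hq : q.Prime)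
    (hn : Fintype.card Ω = q + 3) (h4 : 4 ≤ q) : alternatingGroup Ω ≤ G := by
  have := Fact.mk hq
  obtain ⟨x⟩ : Nonempty (Fin 4 ↪ Ω) := Function.Embedding.nonempty_of_card_le (by simp; omega)
  have h1 := (MulAction.stabilizer G x).index_dvd_card
  rw [@MulAction.index_stabilizer_of_transitive G _ _ _ x ((tr_iff _ _).1 ht), Nat.card_eq_fintype_card, Fintype.card_embedding_eq, hn,
    Fintype.card_fin, Nat.descFactorial_succ, Nat.add_sub_cancel] at h1
  obtain ⟨u, hu⟩ := exists_prime_orderOf_dvd_card' q ((dvd_mul_right _ _).trans h1)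
  exact jor (ht.down (by omega) (by omega)) hq (by omega) hn.ge u.2 ((Subgroup.orderOf_coe u).trans hu)
    (by have := u.1.support.card_le_univ; omega)

end Cfsg.Agent.Prae
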