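import Cfsg.Agent.Prae.Comb
import Cfsg.Agent.Prae.Fix
import Cfsg.Agent.Prae.NumA
import Cfsg.Agent.Prae.Nsw

set_option autoImplicit false

namespace Cfsg.Agent.Prae
open Equiv

variable {Ω : Type} [Fintype Ω] [DecidableEq Ω]

theorem exists_min {G : Subgroup (Perm Ω)} {w : Perm Ω} (hw : w ∈ G) (h1 : w ≠ 1) :
    ∃ u ∈ G, (orderOf u).Prime ∧ ∀ v ∈ G, v ≠ 1 → u.support.card ≤ v.support.card := by
  classical
  have hex : ∃ k, ∃ v ∈ G, v ≠ 1 ∧ v.support.card = k := ⟨_, w, hw, h1, rfl⟩
  obtain ⟨v, hv, hv1, hk⟩ := Nat.find_spec hex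
  have ho : orderOf v ≠ 1 := by simpa using hv1
  have hp := Nat.minFac_prime ho
  have hd := Nat.minFac_dvd (orderOf v)
  have h0 : orderOf v ≠ 0 := (orderOf_pos v).ne'
  refine ⟨v ^ (orderOf v / (orderOf v).minFac), G.pow_mem hv _, ?_, ?_⟩
  · rw [orderOf_pow_orderOf_div h0 hd]; exact hp
  · intro z hz hz1
    calc _ ≤ v.support.card := Finset.card_le_card (Perm.support_pow_le v _)
      _ = Nat.find hex := hk
      _ ≤ _ := Nat.find_min' hex ⟨z, hz, hz1, rfl⟩

theorem dvd_supp {u : Perm Ω} (hp : (orderOf u).Prime) : orderOf u ∣ u.support.card := by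
  obtain ⟨n, hn⟩ := Perm.cycleType_prime_order hp
  rw [← Perm.sum_cycleType, hn]
  simp

theorem no2 {u : Perm Ω} (ho : Odd (orderOf u)) (x : Ω) (h : u (u x) = x) : u x = x := by
  obtain ⟨k, hk⟩ := ho
  have h1 : ∀ j : ℕ, (u ^ (2 * j)) x = x := by
    intro j
    induction j with
    | zero => simp
    | succ j ih => rw [mul_add, mul_one, pow_add, pow_two]; simp [h, ih]
  have h2 : (u ^ (2 * k + 1)) x = x := by rw [← hk, pow_orderOf_eq_one]; rfl
  rw [add_comm, pow_add, pow_one, Perm.mul_apply, h1] at h2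
  exact h2

theorem not_four {G : Subgroup (Perm Ω)} (ht : Tr G 4) {u : Perm Ω} (hu : u ∈ G) (ho : orderOf u = 2)
    (hm : u.support.card = 4) (hn : 5 ≤ Fintype.card Ω)
    (hmin : ∀ v ∈ G, v ≠ 1 → u.support.card ≤ v.support.card) : False := by
  have hu2 : ∀ z, u (u z) = z := fun z => by
    have := pow_orderOf_eq_one u
    rw [ho, pow_two] at this
    exact congrArg (fun f : Perm Ω => f z) this
  obtain ⟨a, ha⟩ : u.support.Nonempty := Finset.card_pos.1 (by omega)
  have hab : a ≠ u a := (Perm.mem_support.1 ha).symm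
  obtain ⟨c, hc, hc'⟩ : ∃ c ∈ u.support, c ∉ ({a, u a} : Finset Ω) := by
    by_contra hh
    push Not at hh
    have := Finset.card_le_card (show u.support ⊆ {a, u a} from hh)
    rw [Finset.card_pair hab] at this
    omega
  simp only [Finset.mem_insert, Finset.mem_singleton, not_or] at hc'
  have hcd : c ≠ u c := (Perm.mem_support.1 hc).symm
  have had : a ≠ u c := fun e => hc'.2 (by rw [e, hu2])
  have hbd : u a ≠ u c := fun e => hc'.1 (u.injective e).symm
  obtain ⟨e, he⟩ : ∃ e, e ∉ u.support := by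
    by_contra hh
    push Not at hh
    have := Finset.card_le_card (show (Finset.univ : Finset Ω) ⊆ u.support from fun z _ => hh z)
    rw [Finset.card_univ] at this
    omega
  have hb : u a ∈ u.support := by simpa using ha
  have hd : u c ∈ u.support := by simpa using hc
  have hS : ({a, u a, c, u c} : Finset Ω) = u.support := by
    apply Finset.eq_of_subset_of_card_le
    · intro z hz
      simp only [Finset.mem_insert, Finset.mem_singleton] at hz
      rcases hz with rfl | rfl | rfl | rfl <;> assumption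
    · rw [hm, Finset.card_insert_of_notMem (by simp [hab, Ne.symm hc'.1, had]),
        Finset.card_insert_of_notMem (by simp [Ne.symm hc'.2, hbd]), Finset.card_pair hcd]
  have ne_e : ∀ z ∈ u.support, z ≠ e := fun z hz h => he (h ▸ hz)
  obtain ⟨g, hg, e1, e2, e3, e4⟩ := ht.four hab (Ne.symm hc'.1) had (Ne.symm hc'.2) hbd hcd
    hab (Ne.symm hc'.1) (ne_e a ha) (Ne.symm hc'.2) (ne_e _ hb) (ne_e c hc)
  have i1 : g⁻¹ a = a := by rw [Perm.inv_eq_iff_eq, e1]
  have i2 : g⁻¹ (u a) = u a := by rw [Perm.inv_eq_iff_eq, e2]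
  have i3 : g⁻¹ c = c := by rw [Perm.inv_eq_iff_eq, e3]
  have hue : u e = e := by simpa using he
  have hw : u * (g * u * g⁻¹) ∈ G := G.mul_mem hu (G.mul_mem (G.mul_mem hg hu) (G.inv_mem hg))
  have hwc : (u * (g * u * g⁻¹)) c = e := by simp only [Perm.mul_apply, i3, e4, hue]
  have hw1 : u * (g * u * g⁻¹) ≠ 1 := fun h => ne_e c hc (by rw [← hwc, h]; rfl)
  have hsub : (u * (g * u * g⁻¹)).support ⊆ {c, u c, e} := by
    intro z hz
    by_contra hh
    simp only [Finset.mem_insert, Finset.mem_singleton, not_or] at hh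
    apply Perm.mem_support.1 hz
    simp only [Perm.mul_apply]
    by_cases z1 : z = a
    · rw [z1, i1, e2, hu2]
    by_cases z2 : z = u a
    · rw [z2, i2, hu2, e1]
    have z3 : z ∉ u.support := by rw [← hS]; simp [z1, z2, hh.1, hh.2.1]
    have z4 : g⁻¹ z ∉ u.support := by
      rw [← hS]
      simp only [Finset.mem_insert, Finset.mem_singleton, Perm.inv_eq_iff_eq, e1, e2, e3, e4, not_or]
      exact ⟨z1, z2, hh.1, hh.2.2⟩
    rw [Perm.notMem_support.1 z4]
    simpa using Perm.notMem_support.1 z3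
  have h3 := (Finset.card_le_card hsub).trans Finset.card_le_three
  have := hmin _ hw hw1
  omega

theorem Ce.stepA {G K : Subgroup (Perm Ω)} (h : Ce G K) (hn : 2 * (fF K).card = Fintype.card Ω)
    (ht : Tr G 4) : ∀ w ∈ G, w ≠ 1 → (fF K).card ≤ w.support.card := by
  intro w hw hw1
  by_contra hlt
  push Not at hlt
  have h2 := two_le_mv h.nt
  have h5 : 4 < (fF K).card := h.hbig hn (by omega) ht
  obtain ⟨u, hu, hp, hmin⟩ := exists_min hw hw1
  have hmw := hmin w hw hw1
  have halt := h.alt hn
  have hcompl : u.support.card + u.supportᶜ.card = Fintype.card Ω := Finset.card_add_card_compl _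
  have ht2 : Tr G 2 := ht.down (by norm_num) (by omega)
  have hdvd := dvd_supp hp
  have hu1 : u ≠ 1 := fun e => by rw [e, orderOf_one] at hp; exact Nat.not_prime_one hp
  have hpos : 0 < u.support.card := Finset.card_pos.2 (Perm.support_eq_empty_iff.not.2 hu1 |> Finset.nonempty_iff_ne_empty.2)
  have hle := Nat.le_of_dvd hpos hdvd
  have h2p : 2 * orderOf u ≤ u.support.card := by
    by_contra hh
    exact halt (jor ht2 hp (by omega) (by omega) hu rfl (by omega))
  have hp2 := hp.two_le
  have hnp : ¬ u.support.card.Prime := fun hq => by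
    have := (Nat.prime_dvd_prime_iff_eq hp hq).1 hdvd
    omega
  have h4 : u.support.card ≠ 4 := fun e => not_four ht hu (by omega) e (by omega) hmin
  have h5' : u.support.card ≠ 5 := fun e => hnp (by rw [e]; norm_num)
  have hP := fun g (hg : g ∈ G) => pa_of hu hmin hg
  have hc2 := comb ht u (by omega) (by omega) (Or.inl rfl) hP
  have hj : ∀ q : ℕ, q.Prime → Fintype.card Ω = q + 3 → False := fun q hq e =>
    halt (jor2 ht hq e (by omega))
  have hc3 : Odd u.support.card → ¬ Cert u.support.card u.supportᶜ.card (3 : ℕ) (PA u.support.card) :=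
    fun ho => comb ht u (by omega) (by omega) (Or.inr ⟨rfl, no2 (Odd.of_dvd_nat ho hdvd)⟩) hP
  generalize u.support.card = m at *
  generalize u.supportᶜ.card = a at *
  generalize Fintype.card Ω = n at *
  generalize (fF K).card = f at *
  push_cast at hc2 hc3
  by_cases hd : a = m + 2
  · subst hd
    push_cast at hc2 hc3
    by_cases h32 : 32 ≤ m
    · exact hc2 (certA2 (by exact_mod_cast h32))
    by_cases ho : Odd m
    · by_cases h13 : 13 ≤ m
      · exact hc3 ho (certA3 (by exact_mod_cast h13))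
      · have : m = 7 ∨ m = 9 ∨ m = 11 := by obtain ⟨k, hk⟩ := ho; omega
        rcases this with rfl | rfl | rfl
        · exact hnp (by norm_num)
        · exact hj 17 (by norm_num) (by omega)
        · exact hnp (by norm_num)
    · have : m = 6 ∨ m = 8 ∨ m = 10 ∨ m = 12 ∨ m = 14 ∨ m = 16 ∨ m = 18 ∨ m = 20 ∨ m = 22 ∨ m = 24 ∨
          m = 26 ∨ m = 28 ∨ m = 30 := by
        rw [Nat.not_odd_iff_even] at ho
        obtain ⟨k, hk⟩ := ho; omega
      rcases this with rfl | rfl | rfl | rfl | rfl | rfl | rfl | rfl | rfl | rfl | rfl | rfl | rfl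
      · exact hj 11 (by norm_num) (by omega)
      · exact hc2 cert8
      · exact hj 19 (by norm_num) (by omega)
      · exact hj 23 (by norm_num) (by omega)
      · exact hc2 cert14
      · exact hj 31 (by norm_num) (by omega)
      · exact hc2 cert18
      · exact hc2 cert20
      · exact hj 43 (by norm_num) (by omega)
      · exact hj 47 (by norm_num) (by omega)
      · exact hc2 cert26
      · exact hc2 cert28
      · exact hj 59 (by norm_num) (by omega)
  · by_cases h6 : m = 6 ∧ a = 10
    · exact hj 13 (by norm_num) (by omega)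
    · exact hc2 (certA1 (by omega))

theorem Ce.not_t4 {G K : Subgroup (Perm Ω)} (h : Ce G K) (hn : 2 * (fF K).card = Fintype.card Ω)
    (ht : Tr G 4) : False := by
  have hA := h.stepA hn ht
  have h2 := two_le_mv h.nt
  have h5 : 4 < (fF K).card := h.hbig hn (by omega) ht
  obtain ⟨⟨u, hu⟩, hu1⟩ := Subgroup.ne_bot_iff_exists_ne_one.1 h.nt
  have hu1 : u ≠ 1 := fun e => hu1 (Subtype.ext e)
  have hB := fun g (hg : g ∈ G) => pb_of h.le h.pn hn hA hu hu1 hg
  have hm := (hB 1 G.one_mem).1
  have hcompl : u.support.card + u.supportᶜ.card = Fintype.card Ω := Finset.card_add_card_compl _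
  have ha : u.supportᶜ.card = u.support.card := by omega
  have hc := comb ht u (by omega) (by omega) (Or.inl rfl) (fun g hg => (hB g hg).2)
  rw [ha] at hc
  exact hc (certB (by omega))

end Cfsg.Agent.Prae
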